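import Cfsg.Agent.H836.KKL.Rows
import Cfsg.Agent.H392.KKL.X2a

/-!
# S4546, row `E₆(q)`, `q` odd: from X2a to `E_E6` (helper734)
-/

set_option autoImplicit false
set_option linter.unusedSectionVars false

namespace Cfsg.Agent.H734.KKL.ESix

open CoxeterSystem
open Cfsg Cfsg.Lie Cfsg.Lie.ChevalleyDatum Cfsg.Agent.H613.KKL
open Cfsg.Agent.ChevalleyStructure Cfsg.Agent.ChevalleyStructure.CoxeterGeom
  Cfsg.Agent.ChevalleyStructure.CoxeterGeomTypes
open Cfsg.Agent.Tits.Roots Cfsg.Agent.Nodes.BNOf Cfsg.Agent.Nodes.RGDChev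
open Cfsg.Agent.KFacts.RgdChevCoord (TT XX)
open Cfsg.Agent.GenExc Cfsg.Agent.GenExc.Chev
open Cfsg.Agent.H557.LrSgn Cfsg.Agent.H557.LrOrb Cfsg.Agent.H557.LrIso Cfsg.Agent.H557.LrChev Cfsg.Agent.H557.LrRho
  Cfsg.Agent.H557.LrData Cfsg.Agent.H557.LrTor
open Cfsg.Agent.H392.KKL (rho)
open Module

theorem card_E6_0 : ((List.range chevE6.nroots).filter fun s => !evk chevE6 (l := 6) 0 s).length = 32 := by
  decide +kernel

section

variable {W : Type*} [Group W] (cs : CoxeterSystem CoxeterMatrix.E₆ W)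

/-- **Involutions of the torus**, abstract form. -/
theorem toral_abs {F : Type} [Field F] [Fintype F] (p : ℕ) [Fact p.Prime] [CharP F p]
    (h2 : (2 : F) ≠ 0) (N : ↥(chevE6.group F) → ℕ) (hN : ∀ g t, N (g * t * g⁻¹) = N t)
    (h00 : ∀ t, SgnEl cs isType_E6.isCartan (TT chevE6 F) (XX chevE6 6 F) (bits 6 0) t → N t ≠ 40)
    (h01 : ∀ t, SgnEl cs isType_E6.isCartan (TT chevE6 F) (XX chevE6 6 F) (bits 6 1) t → N t ≠ 40)
    {t : ↥(chevE6.group F)} (ht : t ∈ TT chevE6 F) (htt : t * t = 1) (h4 : N t = 40) :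
    IsConj (zS isType_E6 F [1]) t := by
  have hW : Finite W := finite_W isType_E6 cs
  have hZ : Subgroup.center ↥(chevE6.group F) = ⊥ := center_eq_bot (S1054.result _ (by simp))
  have R := rgd (K := F) isType_E6 cs p
  obtain ⟨n, hn, hs⟩ := exists_sgn isType_E6 cs p h2 ht htt
  have key : ∀ t : ↥(chevE6.group F), SgnEl cs isType_E6.isCartan (TT chevE6 F) (XX chevE6 6 F) (bits 6 n) t →
      N t = 40 → IsConj (zS isType_E6 F [1]) t := by
    refine orbit_all (rm := rmE6) (P := fun m => ∀ t : ↥(chevE6.group F),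
      SgnEl cs isType_E6.isCartan (TT chevE6 F) (XX chevE6 6 F) (bits 6 m) t → N t = 40 →
      IsConj (zS isType_E6 F [1]) t) (fun j m hP t ht h4 => ?_) okL_E6 (fun m hm => ?_) hn
    · have h2 := ht.conj R (Cfsg.Agent.Nodes.Reps.rp_simple cs R.nsys j)
      rw [bits_step cs isType_E6.isCartan okR_E6] at h2
      refine (hP _ h2 (by rwa [hN])).trans (isConj_iff.2 ⟨_, rfl⟩).symm
    · have hc : ∀ m : ℕ, (7 : ℕ).testBit m = true → m = 0 ∨ m = 2 ∨ m = 1 := by
        intro m hm
        by_cases h : m < 3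
        · revert hm
          revert m
          decide +kernel
        · exfalso
          rw [Nat.testBit_lt_two_pow (lt_of_lt_of_le (by norm_num : (7 : ℕ) < 2 ^ 3)
            (Nat.pow_le_pow_right (by norm_num) (not_lt.1 h)))] at hm
          exact absurd hm (by decide)
      intro t ht h4
      rcases hc m hm with rfl | rfl | rfl
      · exact absurd h4 (h00 t ht)
      · have e : bits 6 2 = csz (cartanOf chevE6 6) [0, 3, 5] := bits_E6
        rw [e] at ht
        obtain rfl := SgnEl.unique (G1_eq_top isType_E6 cs) hZ ht (sgnEl_zS isType_E6 F cs [0, 3, 5])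
        obtain ⟨k, -, hk⟩ := rhoE6.exists_conj isType_E6 cs p hZ
        exact isConj_iff.2 ⟨k, hk⟩
      · exact absurd h4 (h01 t ht)
  exact key t hs h4

include cs in
/-- **Involutions of the torus with `(-1)`-eigenspace of dimension `40`.** -/
theorem toral_class {F : Type} [Field F] [Fintype F] (p : ℕ) [Fact p.Prime] [CharP F p]
    (h2 : (2 : F) ≠ 0) {t : ↥(chevE6.group F)} (ht : t ∈ TT chevE6 F) (htt : t * t = 1)
    (h4 : finrank F ↥(LinearMap.ker (rho chevE6 F t + 1)) = 40) :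
    IsConj (zS isType_E6 F [1]) t := by
  refine toral_abs cs p h2 (fun t => finrank F ↥(LinearMap.ker (rho chevE6 F t + 1)))
    (fun g t => H392.KKL.finrank_conj (rho chevE6 F) g t) (fun t ht => ?_) (fun t ht => ?_) ht htt h4
  · have h5 := H392.KKL.finrank_sgn isType_E6 cs h2 ht
    intro h4
    have h6 : (((Finset.range chevE6.nroots).filter fun s => bits 6 0 (vec chevE6 6 s) ≠ 0)).card = 0 := by
      rw [Finset.card_eq_zero, Finset.filter_eq_empty_iff]
      intro s _
      rw [bits_zero]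
      simp
    have h7 := h5.trans h6
    have h8 : (40 : ℕ) = 0 := h4.symm.trans h7
    exact absurd h8 (by norm_num)
  · intro h4
    have h5 : finrank F ↥(LinearMap.ker (rho chevE6 F t + 1)) = 32 :=
      H392.KKL.finrank_bits isType_E6 cs h2 0 (t := t) ht card_E6_0
    have h8 : (40 : ℕ) = 32 := h4.symm.trans h5
    exact absurd h8 (by norm_num)

end

open Cfsg.Agent.H167.EX (zz zz_mem zz_sq coe_ph_hS)
open Cfsg.Agent.H720.TwFr (hp6)
open Cfsg.Agent.H836.KKL (IsCl)

theorem card_expo : ∀ s < 72, ((List.range 72).filter fun r => decide (HMatDiagAll.expo chevE6 s r % 2 ≠ 0)).length = 40 := by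
  decide +kernel

theorem finrank_zz {F : Type} [Field F] [Fintype F] (h2 : (2 : F) ≠ 0) {s : ℕ} (hs : s < chevE6.nroots) :
    finrank F ↥(LinearMap.ker (rho chevE6 F (zz hp6 (k := F) hs) + 1)) = 40 := by
  have e := coe_ph_hS hp6 (k := F) hs (neg_ne_zero.2 (one_ne_zero (α := F)))
  have hχ' : ∀ r : ℕ, ((-1 : F) ^ HMatDiagAll.expo chevE6 s r + 1 = 0 ↔ HMatDiagAll.expo chevE6 s r % 2 ≠ 0) := by
    intro r
    rcases Int.even_or_odd (HMatDiagAll.expo chevE6 s r) with h | h
    · rw [h.neg_one_zpow]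
      constructor
      · intro h4
        exact absurd (by linear_combination h4 : (2 : F) = 0) h2
      · intro h4
        exact absurd (Int.even_iff.1 h) h4
    · rw [h.neg_one_zpow]
      constructor
      · intro _
        have := Int.odd_iff.1 h
        omega
      · intro _
        ring
  have e1 : rho chevE6 F (zz hp6 (k := F) hs) + 1 = Matrix.toLin' (Matrix.diagonal
      (Sum.elim (fun _ : Fin chevE6.rank => (2 : F))
      fun r : Fin chevE6.nroots => (-1 : F) ^ HMatDiagAll.expo chevE6 s r + 1)) := by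
    rw [H392.KKL.rho_apply, zz, e]
    have : (1 : Module.End F (chevE6.Idx → F)) = Matrix.toLin' (1 : Matrix chevE6.Idx chevE6.Idx F) := by
      rw [Matrix.toLin'_one]; rfl
    rw [this, ← map_add, ← Matrix.diagonal_one, Matrix.diagonal_add]
    congr 2
    funext i
    rcases i with i | i
    · simp only [Sum.elim_inl]; norm_num
    · simp only [Sum.elim_inr]
  rw [e1, H392.KKL.finrank_ker_diag]
  have e2 : Nat.card {i : chevE6.Idx // Sum.elim (fun _ : Fin chevE6.rank => (2 : F))
        (fun r : Fin chevE6.nroots => (-1 : F) ^ HMatDiagAll.expo chevE6 s r + 1) i = 0} =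
      Nat.card ↥((Finset.range chevE6.nroots).filter fun r => HMatDiagAll.expo chevE6 s r % 2 ≠ 0) := by
    refine Nat.card_congr
      { toFun := fun i => match i with
          | ⟨Sum.inl _, h⟩ => (h2 h).elim
          | ⟨Sum.inr r, h⟩ => ⟨r, by
            rw [Finset.mem_filter, Finset.mem_range]
            exact ⟨r.2, (hχ' r).1 h⟩⟩
        invFun := fun r => ⟨Sum.inr ⟨r.1, Finset.mem_range.1 (Finset.mem_filter.1 r.2).1⟩, by
          have h3 := Finset.mem_filter.1 r.2
          exact (hχ' r.1).2 h3.2⟩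
        left_inv := ?_
        right_inv := ?_ }
    · rintro ⟨i | i, h⟩
      · exact (h2 h).elim
      · rfl
    · rintro ⟨r, hr⟩
      rfl
  rw [e2, Nat.card_eq_fintype_card, Fintype.card_coe]
  exact card_expo s hs

/-- a classical involution in the sense of `IsCl` is conjugate to `zS [1]` -/
theorem isConj_of_isCl {F : Type} [Field F] [Fintype F] (p : ℕ) [Fact p.Prime] [CharP F p]
    (h2 : (2 : F) ≠ 0) {t : ↥(chevE6.group F)} (ht : IsCl hp6 t) : IsConj (zS isType_E6 F [1]) t := by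
  obtain ⟨s, hs, x, rfl⟩ := ht
  have h1 := toral_class (CoxeterMatrix.E₆).toCoxeterSystem p h2 (zz_mem hp6 (k := F) hs)
    (by rw [← pow_two]; exact zz_sq hp6 hs) (finrank_zz h2 hs)
  exact h1.trans (isConj_iff.2 ⟨x, rfl⟩)

/-- **row `E₆(q)`, `q` odd** -/
theorem E_E6 {F : Type} [Field F] [Fintype F] {p : ℕ} [Fact p.Prime] [CharP F p] (hp : p ≠ 2) :
    NoCfg ↥(Lie.chevE6.group F) := by
  have ho : Odd (Fintype.card F) := H836.KKL.odd_card hp
  have h2 : (2 : F) ≠ 0 := by
    intro h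
    have h3 : ((2 : ℕ) : F) = 0 := by exact_mod_cast h
    rw [CharP.cast_eq_zero_iff F p] at h3
    exact hp ((Nat.prime_dvd_prime_iff_eq Fact.out Nat.prime_two).1 h3)
  obtain ⟨J, -, h3, h4⟩ := H392.KKL.x2a_E6 (F := F) h2
  refine H836.KKL.E_E6_of ho ⟨J, fun t ht => h3 t (isConj_of_isCl p h2 ht), fun y t _ g => h4 y t g⟩

end Cfsg.Agent.H734.KKL.ESix
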